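/-
Small bridges between the frozen statements of B & G section 16 and the `BG` library.
-/
import Cfsg.Agent.BG.L14_7
import Cfsg.Agent.BG.L15_1
import Cfsg.Agent.BG.T16_0

set_option autoImplicit false

namespace Cfsg.Agent.H47

open Subgroup Cfsg _root_.Cfsg.Agent.H49 Cfsg.Agent.BG

variable {G : Type*} [Group G] [Finite G] (hG : IsMinSimpleOddOrder G) {M K U : Subgroup G}
include hG

theorem typeP_of_dec (hM : IsCoatom M) (h : IsSigmaDecomposition M K U) (hK : K ≠ ⊥) : TypeP M :=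
  (typeP_iff_kappa hG hM h.hall).1 hK

theorem compl_of_dec (hM : IsCoatom M) (h : IsSigmaDecomposition M K U) : KappaCompl M U K :=
  (isSigmaDecomposition_iff hG hM).1 h

theorem typeP2_of_dec (hM : IsCoatom M) (h : IsSigmaDecomposition M K U) (hK : K ≠ ⊥)
    (hU : U ≠ ⊥) : TypeP2 M :=
  ⟨typeP_of_dec hG hM h hK, fun h' =>
    hU ((trivg_kappa_compl hG hM (compl_of_dec hG hM h)).2 ⟨typeP_of_dec hG hM h hK, h'⟩)⟩

/-- the partner of a maximal subgroup of type P is unique -/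
theorem partner_uniq (hM : TypeP M) (hK : IsPiHallOf (kappa M) K M) {L : Subgroup G}
    (hL : IsCoatom L) (h1 : K = kStar L (kStar M K)) (h2 : IsPiHallOf (kappa L) (kStar M K) L)
    {X : Subgroup G} (hX : X ≤ K) (hp : (Nat.card X).Prime) : UniqMax 𝒞(X) L :=
  (Ptype_structure hG ((typeP_iff_kappa hG hL h2).1 (kStar_ne_bot hG hM hK)) h2).2.1.2 X
    (h1 ▸ hX) hp

theorem partner_eq (hM : TypeP M) (hK : IsPiHallOf (kappa M) K M) {L L' : Subgroup G}
    (hL : IsCoatom L) (h1 : K = kStar L (kStar M K)) (h2 : IsPiHallOf (kappa L) (kStar M K) L)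
    (h : ∀ X : Subgroup G, X ≤ K → (Nat.card X).Prime → UniqMax 𝒞(X) L') : L = L' := by
  obtain ⟨X, hX, hp⟩ := exists_prime_le (kappa_ne_bot hG hM hK)
  exact (h X hX hp).2.2 L hL (partner_uniq hG hM hK hL h1 h2 hX hp).2.1

theorem zHat_conj_mem (hM : TypeP M) (hK : IsPiHallOf (kappa M) K M) :
    ∀ g ∈ K ⊔ kStar M K, ∀ a ∈ zHat K (kStar M K), g * a * g⁻¹ ∈ zHat K (kStar M K) := by
  obtain ⟨L, -, -, -, -, -, ⟨hc, -⟩, -⟩ := Ptype_embedding hG hM hK
  intro g hg a ha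
  have : a * g = g * a := abelian_iff.1 (abelian_of_cyclic hc) hg a ha.1
  rwa [← this, mul_inv_cancel_right]

theorem zHat_nonempty (hM : TypeP M) (hK : IsPiHallOf (kappa M) K M) :
    (zHat K (kStar M K)).Nonempty := by
  obtain ⟨x, hx, hx1⟩ := ne_bot_iff_exists.1 (kappa_ne_bot hG hM hK)
  obtain ⟨y, hy, hy1⟩ := ne_bot_iff_exists.1 (kStar_ne_bot hG hM hK)
  have hd := (kStar_dp hG hM hK).2.1
  refine ⟨x * y, mul_mem (mem_sup_left hx) (mem_sup_right hy), ?_⟩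
  rintro (h | h)
  · have : y ∈ K ⊓ kStar M K := ⟨(mul_mem_cancel_left hx).1 h, hy⟩
    rw [hd] at this
    exact hy1 this
  · have : x ∈ K ⊓ kStar M K := ⟨hx, (mul_mem_cancel_right hy).1 h⟩
    rw [hd] at this
    exact hx1 this

/-- the `σ(M)'`-part of an element of `A(M) - M_σ` has its centralizer only in `M` -/
theorem uniq_of_mem_sigmaA (hM : IsCoatom M) (h : KappaCompl M U K) {a : G}
    (ha : a ∈ sigmaA M U) (hs : a ∉ sigmaCore M) : UniqMax 𝒞[eltPart (sigma M)ᶜ a] M := by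
  obtain ⟨⟨haM, y, hy, hy1, e⟩, haU⟩ := ha
  obtain ⟨s1, s2, hpi⟩ := kappa_compl_sdp hG hM h
  have h1 : eltPart (sigma M)ᶜ a ≠ 1 := fun h' => hs ((Msigma_Hall hG hM).mem_of_normal
    (sigmaCore_norm M) haM (by simpa using eltPart_eq_one.1 h'))
  have hc : eltPart (sigma M)ᶜ a ∈ M ⊓ 𝒞[y] :=
    eltPart_mem_of_mem _ (show a ∈ M ⊓ 𝒞[y] from ⟨haM, mem_cent1.2 e⟩)
  rcases pi_of_cent_sigma hG hM hy hy1 hc h1 (eltPart_isPi _ _) with h' | h'
  · refine absurd (IsPiElt.eq_one h'.1 (hpi.elt (eltPart_mem_of_mem _ ?_))) h1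
    rwa [sup_comm]
  · exact h'.2.2

theorem sigmaA_diff_conj_mem (hM : IsCoatom M) (h : KappaCompl M U K) :
    ∀ g ∈ M, ∀ a ∈ sigmaA M U \ (sigmaCore M : Set G),
      g * a * g⁻¹ ∈ sigmaA M U \ (sigmaCore M : Set G) := by
  rintro g hg a ⟨⟨⟨haM, y, hy, hy1, e⟩, haU⟩, hs⟩
  obtain ⟨-, s2, -⟩ := kappa_compl_sdp hG hM h
  refine ⟨⟨⟨mul_mem (mul_mem hg haM) (inv_mem hg), g * y * g⁻¹,
    conj_mem_of_norm (sigmaCore_norm M) hg hy, by simpa using hy1, ?_⟩, ?_⟩, fun h' => hs ?_⟩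
  · calc g * a * g⁻¹ * (g * y * g⁻¹) = g * (a * y) * g⁻¹ := by group
      _ = g * (y * a) * g⁻¹ := by rw [e]
      _ = _ := by group
  · rw [sup_comm] at haU ⊢
    exact conj_mem_of_norm s2.norm hg haU
  · simpa [mul_assoc] using conj_mem_of_norm' (sigmaCore_norm M) hg h'

theorem sigmaA_diff_TISet (hM : IsCoatom M) (h : KappaCompl M U K) :
    TISet (sigmaA M U \ (sigmaCore M : Set G)) M := by
  intro g a ha ha'
  have u1 := H48.uniqMax_cj (uniq_of_mem_sigmaA hG hM h ha.1 ha.2) g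
  have u2 := uniq_of_mem_sigmaA hG hM h ha'.1 ha'.2
  rw [cj_cent1, ← eltPart_conj] at u1
  have e := u2.2.2 _ u1.1 u1.2.1
  rw [← H48.ms_norm_eq hG hM (H48.ms_coatom_ne_bot hG hM) le_rfl le_normalizer]
  exact mem_norm_iff_cj.2 e

end Cfsg.Agent.H47
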